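import Mathlib
import Cfsg.Agent.Lib.CharTriple.Fong
import Cfsg.Agent.Lib.CharP.Basic
import Cfsg.Agent.Lib.Glauberman.PGroup
import Cfsg.Agent.Lib.Blocks.Induced
import Cfsg.Agent.Lib.BlockT.Normal

/-!
# Blocks of principal type over an invariant character of `O_{p'}(G)`

With `K, L` as in Fong's theorem and `R` a `p`-subgroup of `G`, the characters of `C_G(R)` over
the Glauberman correspondent of `θ` form the unique block of `C_G(R)` inducing the block over `θ`.
-/

set_option autoImplicit false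
set_option linter.unusedSectionVars false
set_option linter.style.haveILetI false

namespace Cfsg.Agent.Lib.CharTriple.PrincipalType

open Cfsg Module
open Cfsg.Agent.Lib.Char.Basic Cfsg.Agent.Lib.Char.Ortho Cfsg.Agent.Lib.Char.Complete
open Cfsg.Agent.Lib.Char.Conj
open Cfsg.Agent.Lib.Blocks.Local Cfsg.Agent.Lib.Blocks.Central Cfsg.Agent.Lib.Blocks.Brauer
open Cfsg.Agent.Lib.Blocks.Induced
open scoped ComplexConjugate

universe u

variable {G : Type u} [Group G]

section Group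

variable {p : ℕ} [hpf : Fact p.Prime]

/-- Conjugation by `R` on a coset of `K` fixed by `R`. -/
def cosetAct {K : Subgroup G} (hK : K.Normal) {R : Subgroup G} (l : G)
    (hc : ∀ r ∈ R, r * l * r⁻¹ * l⁻¹ ∈ K) : MulAction R {x : G // l⁻¹ * x ∈ K} where
  smul r x := ⟨(r : G) * x * (r : G)⁻¹, by
    have h1 := hc r r.2
    have h2 := hK.conj_mem _ x.2 r
    have h3 : l⁻¹ * ((r : G) * x * (r : G)⁻¹) =
        (l⁻¹ * ((r : G) * l * (r : G)⁻¹ * l⁻¹)⁻¹⁻¹ * l) * ((r : G) * (l⁻¹ * x) * (r : G)⁻¹) := by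
      group
    rw [h3]
    refine K.mul_mem ?_ h2
    have h4 := hK.conj_mem _ h1 l⁻¹
    simpa using h4⟩
  one_smul x := by
    apply Subtype.ext
    show ((1 : R) : G) * x * ((1 : R) : G)⁻¹ = x
    simp
  mul_smul r s x := by
    apply Subtype.ext
    show ((r * s : R) : G) * x * ((r * s : R) : G)⁻¹ = (r : G) * ((s : G) * x * (s : G)⁻¹) * (r : G)⁻¹
    push_cast
    group

/-- A coset of `K` fixed by the `p`-group `R` contains an element centralized by `R`. -/
theorem exists_lift_centralizer [Finite G] {K R : Subgroup G} (hK : K.Normal)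
    (hKp : ¬ p ∣ Nat.card K) (hR : IsPGroup p R) (l : G)
    (hc : ∀ r ∈ R, r * l * r⁻¹ * l⁻¹ ∈ K) :
    ∃ t : G, t ∈ Subgroup.centralizer (R : Set G) ∧ l⁻¹ * t ∈ K := by
  classical
  letI := cosetAct hK l hc
  have hcard : Nat.card {x : G // l⁻¹ * x ∈ K} = Nat.card K := by
    refine Nat.card_congr
      { toFun := fun x => ⟨l⁻¹ * x, x.2⟩
        invFun := fun k => ⟨l * k, by simp⟩
        left_inv := fun x => by ext; simp
        right_inv := fun k => by ext; simp }
  obtain ⟨⟨t, ht⟩, hfix⟩ := hR.nonempty_fixed_point_of_prime_not_dvd_card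
    {x : G // l⁻¹ * x ∈ K} (by rwa [hcard])
  refine ⟨t, ?_, ht⟩
  rw [Subgroup.mem_centralizer_iff]
  intro r hr
  have h1 := congrArg Subtype.val (hfix ⟨r, hr⟩)
  have h2 : r * t * r⁻¹ = t := h1
  calc r * t = r * t * r⁻¹ * r := by group
    _ = t * r := by rw [h2]

/-- The Hall-Higman condition passes to centralizers of `p`-subgroups. -/
theorem hh_centralizer [Finite G] {K L R : Subgroup G} (hK : K.Normal) (hL : L.Normal)
    (hKL : K ≤ L) (hKp : ¬ p ∣ Nat.card K) (hLp : ∀ l ∈ L, ∃ k : ℕ, l ^ (p ^ k) ∈ K)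
    (hHH : ∀ y : G, ¬ p ∣ orderOf y → (∀ l ∈ L, y * l * y⁻¹ * l⁻¹ ∈ K) → y ∈ K)
    (hR : IsPGroup p R) (y : G) (hyC : y ∈ Subgroup.centralizer (R : Set G))
    (hy : ¬ p ∣ orderOf y)
    (hyc : ∀ l ∈ L, l ∈ Subgroup.centralizer (R : Set G) → y * l * y⁻¹ * l⁻¹ ∈ K) : y ∈ K := by
  classical
  have hp := hpf.out
  apply hHH y hy
  let π : G →* G ⧸ K := QuotientGroup.mk' K
  have hπ : ∀ a b : G, π a * π b = π b * π a ↔ a * b * a⁻¹ * b⁻¹ ∈ K := by
    intro a b
    have h1 : π (a * b * a⁻¹ * b⁻¹) = 1 ↔ a * b * a⁻¹ * b⁻¹ ∈ K := QuotientGroup.eq_one_iff _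
    rw [← h1]
    simp only [map_mul, map_inv]
    constructor
    · intro h
      rw [h]
      group
    · intro h
      calc π a * π b = (π a * π b * (π a)⁻¹ * (π b)⁻¹) * (π b * π a) := by group
        _ = π b * π a := by rw [h, one_mul]
  have hQ : IsPGroup p (L.map π) := by
    rintro ⟨_, l, hl, rfl⟩
    obtain ⟨k, hk⟩ := hLp l hl
    refine ⟨k, ?_⟩
    apply Subtype.ext
    show π l ^ p ^ k = 1
    rw [← map_pow]
    exact (QuotientGroup.eq_one_iff _).mpr hk
  have hR' : IsPGroup p (R.map π) := hR.map π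
  have hmain := Cfsg.Agent.Lib.CharP.Basic.thompson_AB (p := p) (L.map π) (R.map π) hQ hR'
    (by
      rintro _ ⟨r, hr, rfl⟩ _ ⟨l, hl, rfl⟩
      exact ⟨r * l * r⁻¹, hL.conj_mem l hl r, by simp⟩)
    (π y)
    (by
      rintro _ ⟨l, hl, rfl⟩
      exact ⟨y * l * y⁻¹, hL.conj_mem l hl y, by simp⟩)
    (by
      rintro _ ⟨r, hr, rfl⟩
      have h1 := Subgroup.mem_centralizer_iff.mp hyC r hr
      rw [← map_mul, ← map_mul, h1])
    (by
      have h1 : orderOf (π y) ∣ orderOf y := orderOf_map_dvd π y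
      have h2 : (orderOf y).Coprime p := ((Nat.Prime.coprime_iff_not_dvd hp).mpr hy).symm
      exact Nat.Coprime.coprime_dvd_left h1 h2)
    (by
      rintro _ ⟨l, hl, rfl⟩ hfix
      have h1 : ∀ r ∈ R, r * l * r⁻¹ * l⁻¹ ∈ K := by
        intro r hr
        apply (hπ r l).mp
        exact hfix _ ⟨r, hr, rfl⟩
      obtain ⟨t, htC, ht⟩ := exists_lift_centralizer hK hKp hR l h1
      have htL : t ∈ L := by
        have := L.mul_mem hl (hKL ht)
        simpa using this
      have h2 := hyc t htL htC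
      have h3 : π l = π t := by
        have : (l : G ⧸ K) = (t : G ⧸ K) := QuotientGroup.eq.mpr ht
        exact this
      rw [h3]
      exact (hπ y t).mpr h2)
  intro l hl
  exact (hπ y l).mp (hmain _ ⟨l, hl, rfl⟩)

end Group

section Idem

variable [Fintype G] {p : ℕ} [hpf : Fact p.Prime] {M : Ideal AlgInt}

/-- The degree of an irreducible character of a `p'`-group is a `p`-free natural number. -/
theorem exists_deg {K : Type u} [Group K] [Fintype K] (hKp : ¬ p ∣ Nat.card K) (θ : IrrCharacter K) :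
    ∃ d : ℕ, (θ : K → ℂ) 1 = (d : ℂ) ∧ d ≠ 0 ∧ ¬ p ∣ d := by
  obtain ⟨d, X, hX, hXe⟩ := θ.2
  have hdK : d ∣ Nat.card K := by
    haveI : X.IsIrreducible := hX
    have h1 := Cfsg.Agent.Lib.Char.Central.finrank_dvd_card (ρ := X)
    rwa [Module.finrank_fin_fun] at h1
  have hθ1 : (θ : K → ℂ) 1 = (d : ℂ) := by
    rw [← hXe, Representation.char_one, Module.finrank_fin_fun]
  refine ⟨d, hθ1, ?_, fun h => hKp (h.trans hdK)⟩
  rintro rfl
  exact irr_one_ne_zero θ.2 (by rw [hθ1]; simp)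

variable {K : Subgroup G} [hK : K.Normal] [Fintype K]

/-- The central idempotent attached to an invariant character of a normal subgroup. -/
noncomputable def thetaZ (θ : IrrCharacter K) (hinv : ∀ g : G, conjOn hK g (θ : K → ℂ) = (θ : K → ℂ)) :
    Subalgebra.center ℂ (GA G) :=
  open Classical in
  ⟨ofFun (fun g => if h : g ∈ K then ((θ : K → ℂ) 1 / (Nat.card K : ℂ)) * conj ((θ : K → ℂ) ⟨g, h⟩)
      else 0), by
    rw [mem_center_iff]
    intro g x
    rw [coeff_ofFun, coeff_ofFun]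
    by_cases hg : g ∈ K
    · have hg' : x * g * x⁻¹ ∈ K := hK.conj_mem g hg x
      rw [dif_pos hg, dif_pos hg']
      have := congrFun (hinv x) ⟨g, hg⟩
      rw [conjOn_apply] at this
      simp only at this
      rw [this]
    · have hg' : x * g * x⁻¹ ∉ K := fun h => hg (by
        have := hK.conj_mem _ h x⁻¹
        simpa [mul_assoc] using this)
      rw [dif_neg hg, dif_neg hg']⟩

theorem coeff_thetaZ_coe (θ : IrrCharacter K) (hinv : ∀ g : G, conjOn hK g (θ : K → ℂ) = (θ : K → ℂ))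
    (k : K) : (thetaZ θ hinv : GA G).coeff (k : G) =
      ((θ : K → ℂ) 1 / (Nat.card K : ℂ)) * conj ((θ : K → ℂ) k) := by
  classical
  show (ofFun _).coeff (k : G) = _
  rw [coeff_ofFun, dif_pos k.2]

theorem coeff_thetaZ_of_mem (θ : IrrCharacter K) (hinv : ∀ g : G, conjOn hK g (θ : K → ℂ) = (θ : K → ℂ))
    {g : G} (hg : g ∈ K) : (thetaZ θ hinv : GA G).coeff g =
      ((θ : K → ℂ) 1 / (Nat.card K : ℂ)) * conj ((θ : K → ℂ) ⟨g, hg⟩) :=
  coeff_thetaZ_coe θ hinv ⟨g, hg⟩

theorem coeff_thetaZ_of_notMem (θ : IrrCharacter K) (hinv : ∀ g : G, conjOn hK g (θ : K → ℂ) = (θ : K → ℂ))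
    {g : G} (hg : g ∉ K) : (thetaZ θ hinv : GA G).coeff g = 0 := by
  classical
  show (ofFun _).coeff g = _
  rw [coeff_ofFun, dif_neg hg]

theorem thetaZ_mem_localCenter (hM : IsPModular p M) (hKp : ¬ p ∣ Nat.card K) (θ : IrrCharacter K)
    (hinv : ∀ g : G, conjOn hK g (θ : K → ℂ) = (θ : K → ℂ)) :
    haveI := isPrime_of_pModular hM
    thetaZ θ hinv ∈ localCenter M G := by
  haveI := isPrime_of_pModular hM
  intro g
  by_cases hg : g ∈ K
  · rw [coeff_thetaZ_of_mem θ hinv hg]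
    obtain ⟨d, hd, -, -⟩ := exists_deg hKp θ
    rw [hd, div_eq_mul_inv]
    refine memLocalRing_mul (memLocalRing_mul (memLocalRing_natCast d) (memLocalRing_natCast_inv hM hKp)) ?_
    apply memLocalRing_of_isIntegral
    rw [← Cfsg.Agent.Lib.Char.Ortho.char_inv_eq_conj (isCharacter_of_isIrrCharacter θ.2) ⟨g, hg⟩]
    exact Cfsg.Agent.Lib.BlockT.NormalP.isIntegral_irr θ _
  · rw [coeff_thetaZ_of_notMem θ hinv hg]
    exact memLocalRing_zero

/-- The central character value of `thetaZ`. -/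
theorem omegaHom_thetaZ (θ : IrrCharacter K) (hinv : ∀ g : G, conjOn hK g (θ : K → ℂ) = (θ : K → ℂ))
    (χ : IrrCharacter G) :
    omegaHom χ (thetaZ θ hinv) =
      (θ : K → ℂ) 1 * classInner (fun k : K => (χ : G → ℂ) k) (θ : K → ℂ) / (χ : G → ℂ) 1 := by
  classical
  rw [omegaHom_apply, lin_apply]
  congr 1
  rw [sum_eq_sum_subgroup K _ (fun g hg => by rw [coeff_thetaZ_of_notMem θ hinv hg, zero_mul]),
    classInner_def, mul_left_comm, Finset.mul_sum, Finset.mul_sum]
  refine Finset.sum_congr rfl fun k _ => ?_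
  rw [coeff_thetaZ_coe]
  ring

end Idem

section Induced

variable [Fintype G] {p : ℕ} [hpf : Fact p.Prime] {M : Ideal AlgInt} {R : Subgroup G}

variable [Fintype (Subgroup.centralizer (R : Set G))]

theorem incl_restrCenter [M.IsPrime] (z : Subalgebra.center ℂ (GA G)) :
    incl (Subgroup.centralizer (R : Set G)) (restrCenter (Subgroup.centralizer (R : Set G)) z : GA _) =
      res (Subgroup.centralizer (R : Set G) : Subgroup G) (z : GA G) := by
  ext g
  by_cases hg : g ∈ Subgroup.centralizer (R : Set G)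
  · rw [coeff_incl_of_mem _ _ hg, coe_restrCenter, coeff_restr, coeff_res_of_mem]
    exact hg
  · rw [coeff_incl_of_notMem _ _ hg, coeff_res_of_notMem]
    exact hg

theorem restrCenter_mul_sub_mem (hM : IsPModular p M) [M.IsPrime] (hR : IsPGroup p R)
    {z w : Subalgebra.center ℂ (GA G)} (hz : z ∈ localCenter M G) (hw : w ∈ localCenter M G) :
    Jc M ((restrCenter (Subgroup.centralizer (R : Set G)) (z * w) : GA (Subgroup.centralizer (R : Set G))) -
      (restrCenter (Subgroup.centralizer (R : Set G)) z : GA (Subgroup.centralizer (R : Set G))) *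
        (restrCenter (Subgroup.centralizer (R : Set G)) w : GA (Subgroup.centralizer (R : Set G)))) := by
  intro h
  have h1 := res_mul_sub_mem hM hR (QInv.of_central (isCentral_of_mem z))
    (QInv.of_central (isCentral_of_mem w)) (Rc.of_localCenter hz) (Rc.of_localCenter hw) (h : G)
  rw [← incl_restrCenter (M := M) z, ← incl_restrCenter (M := M) w, ← incl_mul, coeff_sub',
    coeff_incl_coe] at h1
  rw [coeff_res_of_mem _ (show (h : G) ∈ ((Subgroup.centralizer (R : Set G) : Subgroup G) : Set G) from h.2)] at h1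
  rw [coeff_sub', coe_restrCenter, coeff_restr]
  exact h1

theorem indHom_mul_sub_mem_centralizer (hM : IsPModular p M) [M.IsPrime] (hR : IsPGroup p R)
    (ξ : IrrCharacter (Subgroup.centralizer (R : Set G)))
    {z w : Subalgebra.center ℂ (GA G)} (hz : z ∈ localCenter M G) (hw : w ∈ localCenter M G) :
    MemLocalIdeal M (indHom _ ξ (z * w) - indHom _ ξ z * indHom _ ξ w) := by
  have h4 := omegaHom_mem_of_Jc (z := restrCenter (Subgroup.centralizer (R : Set G)) (z * w) -
    restrCenter (Subgroup.centralizer (R : Set G)) z * restrCenter (Subgroup.centralizer (R : Set G)) w)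
    ξ (restrCenter_mul_sub_mem hM hR hz hw)
  have h5 : omegaHom ξ (restrCenter (Subgroup.centralizer (R : Set G)) (z * w) -
      restrCenter (Subgroup.centralizer (R : Set G)) z * restrCenter (Subgroup.centralizer (R : Set G)) w) =
      indHom _ ξ (z * w) - indHom _ ξ z * indHom _ ξ w := by
    rw [map_sub, map_mul (omegaHom ξ)]
    rfl
  rwa [h5] at h4

/-- There is a character of `G` congruent to `ξ ∘ restr`. -/
theorem exists_irr_indHom (hM : IsPModular p M) [M.IsPrime] (hR : IsPGroup p R)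
    (ξ : IrrCharacter (Subgroup.centralizer (R : Set G))) :
    ∃ χ : IrrCharacter G, ∀ z ∈ localCenter M G,
      MemLocalIdeal M (indHom (Subgroup.centralizer (R : Set G)) ξ z - omegaHom χ z) :=
  exists_irr_of_hom (indHom _ ξ) (fun z hz => indHom_mem_local _ ξ hz)
    (fun z hz w hw => indHom_mul_sub_mem_centralizer hM hR ξ hz hw)
    (by rw [indHom_one, sub_self]; exact memLocalIdeal_zero)

end Induced

section Main

variable [Fintype G] {p : ℕ} [hpf : Fact p.Prime] {M : Ideal AlgInt}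

/-- The value of `indHom` on `thetaZ` through a constituent on `K ∩ H`. -/
theorem indHom_thetaZ {K : Subgroup G} [hK : K.Normal] [Fintype K] (H : Subgroup G) [Fintype H]
    (K' : Subgroup H) [hK' : K'.Normal] [Fintype K'] (hK'K : ∀ h : H, h ∈ K' ↔ (h : G) ∈ K)
    (θ : IrrCharacter K) (hinv : ∀ g : G, conjOn hK g (θ : K → ℂ) = (θ : K → ℂ))
    (ξ : IrrCharacter H) (β : IrrCharacter K')
    (hcon : classInner (fun n : K' => (ξ : H → ℂ) n) (β : K' → ℂ) ≠ 0) :
    indHom H ξ (thetaZ θ hinv) = (θ : K → ℂ) 1 * (Nat.card K' : ℂ) / ((Nat.card K : ℂ) * (β : K' → ℂ) 1) *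
      conj (classInner (fun n : K' => (θ : K → ℂ) ⟨((n : H) : G), (hK'K n).mp n.2⟩) (β : K' → ℂ)) := by
  classical
  have hβ1 := irr_one_ne_zero β.2
  have hK0 : (Nat.card K : ℂ) ≠ 0 := card_ne_zero_complex
  have hK'0 : (Nat.card K' : ℂ) ≠ 0 := card_ne_zero_complex
  let a : K' → ℂ := fun n => (thetaZ θ hinv : GA G).coeff ((n : H) : G)
  have ha : ∀ (t : H) (n : K'), a ⟨t * n * t⁻¹, hK'.conj_mem n n.2 t⟩ = a n := by
    intro t n
    show (thetaZ θ hinv : GA G).coeff (((t * n * t⁻¹ : H)) : G) = _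
    push_cast
    exact isCentral_of_mem (thetaZ θ hinv) _ _
  have h1 := Cfsg.Agent.Lib.BlockT.Normal.sum_mul_eq_of_constituent hK' ξ.2 β.2 hcon a ha
  have h2 : lin (ξ : H → ℂ) (restrCenter H (thetaZ θ hinv) : GA H) = ∑ n : K', a n * (ξ : H → ℂ) n := by
    rw [lin_apply, sum_eq_sum_subgroup K' _ ?_]
    · rfl
    · intro g hg
      rw [coe_restrCenter, coeff_restr, coeff_thetaZ_of_notMem θ hinv (fun h => hg ((hK'K g).mpr h)), zero_mul]
  rw [indHom_apply, omegaHom_apply, h2, h1, classInner_conj, classInner_def, Finset.sum_div,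
    Finset.mul_sum, Finset.mul_sum]
  refine Finset.sum_congr rfl fun n _ => ?_
  have hn : a n = ((θ : K → ℂ) 1 / (Nat.card K : ℂ)) * conj ((θ : K → ℂ) ⟨((n : H) : G), (hK'K n).mp n.2⟩) :=
    coeff_thetaZ_of_mem θ hinv _
  rw [hn]
  field_simp

/-- The third clause. -/
theorem existsUnique_induced (hM : IsPModular p M) (K L : Subgroup G) [hK : K.Normal] [hL : L.Normal]
    [Fintype K] (hKL : K ≤ L) (hKp : ¬ p ∣ Nat.card K) (hLp : ∀ l ∈ L, ∃ k : ℕ, l ^ (p ^ k) ∈ K)
    (hHH : ∀ y : G, ¬ p ∣ orderOf y → (∀ l ∈ L, y * l * y⁻¹ * l⁻¹ ∈ K) → y ∈ K)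
    (θ : IrrCharacter K) (hinv : ∀ g : G, conjOn hK g (θ : K → ℂ) = (θ : K → ℂ))
    (B : Set (IrrCharacter G))
    (hB : ∀ χ : IrrCharacter G, χ ∈ B ↔ classInner (fun k : K => (χ : G → ℂ) k) (θ : K → ℂ) ≠ 0)
    (hBlock : IsPBlock M B) (R : Subgroup G) (hR : IsPGroup p R) :
    ∃! f : Set (IrrCharacter (Subgroup.centralizer (R : Set G))),
      IsInducedBlock M (Subgroup.centralizer (R : Set G)) f B := by
  classical
  have hp : p.Prime := hpf.out
  haveI hMprime := isPrime_of_pModular hM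
  set C : Subgroup G := Subgroup.centralizer (R : Set G) with hC
  letI : Fintype C := Fintype.ofFinite _
  set K' : Subgroup C := K.subgroupOf C with hK'def
  set L' : Subgroup C := L.subgroupOf C with hL'def
  haveI hK'n : K'.Normal := inferInstance
  haveI hL'n : L'.Normal := inferInstance
  letI : Fintype K' := Fintype.ofFinite _
  have hK'K : ∀ h : C, h ∈ K' ↔ (h : G) ∈ K := fun h => Subgroup.mem_subgroupOf
  let ι : K' →* K :=
    { toFun := fun k => ⟨((k : C) : G), (hK'K k).mp k.2⟩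
      map_one' := rfl
      map_mul' := fun _ _ => rfl }
  have hι : Function.Injective ι := by
    intro a b h
    apply Subtype.ext
    apply Subtype.ext
    have h1 := congrArg Subtype.val h
    exact h1
  have hnorm : ∀ s ∈ R, ∀ g ∈ K, s * g * s⁻¹ ∈ K := fun s _ g hg => hK.conj_mem g hg s
  let φ : R →* MulAut K := Cfsg.Agent.Lib.Glauberman.ConjAct.conjHom K R hnorm
  have hrange : ∀ g, g ∈ ι.range ↔ ∀ s, φ s g = g := by
    intro g
    constructor
    · rintro ⟨c, rfl⟩ s
      apply Subtype.ext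
      have hc : ((c : C) : G) ∈ Subgroup.centralizer (R : Set G) := (c : C).2
      have h1 := Subgroup.mem_centralizer_iff.mp hc s s.2
      show (s : G) * ((c : C) : G) * (s : G)⁻¹ = ((c : C) : G)
      rw [h1]
      group
    · intro h
      have hc : (g : G) ∈ C := by
        rw [hC, Subgroup.mem_centralizer_iff]
        intro r hr
        have h1 : (r : G) * (g : G) * r⁻¹ = g := congrArg Subtype.val (h ⟨r, hr⟩)
        calc r * (g : G) = r * g * r⁻¹ * r := by group
          _ = g * r := by rw [h1]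
      refine ⟨⟨⟨g, hc⟩, (hK'K _).mpr g.2⟩, ?_⟩
      rfl
  have hcop : Nat.Coprime p (Nat.card K) := (Nat.Prime.coprime_iff_not_dvd hp).mpr hKp
  obtain ⟨π, hπ⟩ := Cfsg.Agent.Lib.Glauberman.PGroup.mainP hp hR _ K K' φ ι rfl hι hcop hrange
  have hθinv : ∀ s : R, (θ : K → ℂ) ∘ φ s = (θ : K → ℂ) := by
    intro s
    funext k
    exact congrFun (hinv s) k
  set θs : IrrCharacter K' := π ⟨θ, hθinv⟩ with hθs
  obtain ⟨ε, hε, kk, hk⟩ := hπ ⟨θ, hθinv⟩
  have hp1 : ¬ (p : ℤ) ∣ ε := by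
    have hp1' : ¬ (p : ℤ) ∣ 1 := by
      intro h
      have h2 : p ∣ 1 := by exact_mod_cast h
      exact hp.one_lt.ne' (Nat.dvd_one.mp h2)
    rcases hε with h | h <;> rw [h]
    · exact hp1'
    · exact fun h3 => hp1' (dvd_neg.mp h3)
  have hk' : ∀ γ : IrrCharacter K', classInner (fun c : K' => (θ : K → ℂ) (ι c)) (γ : K' → ℂ) =
      ((p * kk γ + if γ = θs then ε else 0 : ℤ) : ℂ) := hk
  -- invariance
  have hinvs : ∀ c : C, conjOn hK'n c (θs : K' → ℂ) = (θs : K' → ℂ) := by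
    intro c
    let γ : IrrCharacter K' := ⟨conjOn hK'n c θs, isIrrCharacter_conjOn hK'n c θs.2⟩
    have h1 : classInner (fun x : K' => (θ : K → ℂ) (ι x)) (γ : K' → ℂ) =
        classInner (fun x : K' => (θ : K → ℂ) (ι x)) (θs : K' → ℂ) := by
      have h2 : conjOn hK'n c (fun x : K' => (θ : K → ℂ) (ι x)) = fun x => (θ : K → ℂ) (ι x) := by
        funext x
        rw [conjOn_apply]
        exact congrFun (hinv c) (ι x)
      rw [← classInner_conjOn hK'n c (fun x => (θ : K → ℂ) (ι x)) θs, h2]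
    by_contra hne
    have hγ : γ ≠ θs := fun h => hne (congrArg Subtype.val h)
    rw [hk' γ, hk' θs, if_neg hγ, if_pos rfl] at h1
    have h3 : (p : ℤ) * kk γ + 0 = p * kk θs + ε := by exact_mod_cast h1
    exact hp1 ⟨kk γ - kk θs, by linarith⟩
  -- Fong's theorem on `C`
  have hK'p : ¬ p ∣ Nat.card K' := fun h => hKp (h.trans (Subgroup.card_dvd_of_injective ι hι))
  have hK'L' : K' ≤ L' := fun x hx => by
    rw [hL'def, Subgroup.mem_subgroupOf]
    exact hKL ((hK'K x).mp hx)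
  have hL'p : ∀ l ∈ L', ∃ k : ℕ, l ^ (p ^ k) ∈ K' := by
    intro l hl
    obtain ⟨k, hk⟩ := hLp l (Subgroup.mem_subgroupOf.mp hl)
    refine ⟨k, (hK'K _).mpr ?_⟩
    simpa using hk
  have hHH' : ∀ y : C, ¬ p ∣ orderOf y → (∀ l ∈ L', y * l * y⁻¹ * l⁻¹ ∈ K') → y ∈ K' := by
    intro y hy hyc
    apply (hK'K y).mpr
    refine hh_centralizer hK hL hKL hKp hLp hHH hR (y : G) y.2 (by rwa [Subgroup.orderOf_coe]) ?_
    intro l hl hlC
    have h1 := hyc ⟨l, hlC⟩ (Subgroup.mem_subgroupOf.mpr hl)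
    have h2 := (hK'K _).mp h1
    simpa using h2
  let B' : Set (IrrCharacter C) := {ξ | classInner (fun k : K' => (ξ : C → ℂ) k) (θs : K' → ℂ) ≠ 0}
  have hB'block : IsPBlock M B' := (Cfsg.Agent.Lib.CharTriple.Fong.fong_main hM K' L' hK'L' hK'p hL'p hHH'
    θs hinvs B' (fun _ => Iff.rfl)).1
  -- the central element
  set z := thetaZ θ hinv with hz
  have hzl : z ∈ localCenter M G := thetaZ_mem_localCenter hM hKp θ hinv
  have hF1 : ∀ χ ∈ B, omegaHom χ z = 1 := by
    intro χ hχ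
    have hne := (hB χ).mp hχ
    rw [hz, omegaHom_thetaZ]
    have h2 := Cfsg.Agent.Lib.CharTriple.FongCore.restrict_of_invariant χ.2 θ.2 hinv hne 1
    simp only [Subgroup.coe_one] at h2
    rw [h2, mul_comm]
    exact div_self (mul_ne_zero hne (irr_one_ne_zero θ.2))
  have hF2 : ∀ χ, χ ∉ B → omegaHom χ z = 0 := by
    intro χ hχ
    have hne : classInner (fun k : K => (χ : G → ℂ) k) (θ : K → ℂ) = 0 := by
      by_contra h
      exact hχ ((hB χ).mpr h)
    rw [hz, omegaHom_thetaZ, hne, mul_zero, zero_div]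
  obtain ⟨d, hd, hd0, hdp⟩ := exists_deg hKp θ
  have hF3 : ∀ (ξ : IrrCharacter C) (β : IrrCharacter K'),
      classInner (fun n : K' => (ξ : C → ℂ) n) (β : K' → ℂ) ≠ 0 →
      ∃ a : ℂ, MemLocalRing M a ∧ ¬ MemLocalIdeal M a ∧ indHom C ξ z = a * (((p * kk β + if β = θs then ε else 0 : ℤ)) : ℂ) := by
    intro ξ β hcon
    obtain ⟨e, he, he0, hep⟩ := exists_deg hK'p β
    have h1 := indHom_thetaZ C K' hK'K θ hinv ξ β hcon
    have h2 : classInner (fun n : K' => (θ : K → ℂ) ⟨((n : C) : G), (hK'K n).mp n.2⟩) (β : K' → ℂ) =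
        ((p * kk β + if β = θs then ε else 0 : ℤ) : ℂ) := hk' β
    rw [h2, map_intCast, hd, he] at h1
    have hKne : ((Nat.card K : ℕ) : ℂ) ≠ 0 := card_ne_zero_complex
    have hene : (e : ℂ) ≠ 0 := Nat.cast_ne_zero.mpr he0
    refine ⟨_, ?_, ?_, h1⟩
    · rw [div_eq_mul_inv, mul_inv]
      exact memLocalRing_mul (memLocalRing_mul (memLocalRing_natCast _) (memLocalRing_natCast _))
        (memLocalRing_mul (memLocalRing_natCast_inv hM hKp) (memLocalRing_natCast_inv hM hep))
    · intro hmem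
      have h3 := memLocalIdeal_mul_right hmem
        (memLocalRing_natCast (M := M) (Nat.card K * e))
      have h4 : (d : ℂ) * (Nat.card K' : ℂ) / ((Nat.card K : ℂ) * (e : ℂ)) * ((Nat.card K * e : ℕ) : ℂ) =
          ((d * Nat.card K' : ℕ) : ℂ) := by
        push_cast
        field_simp
      rw [h4] at h3
      have h5 := (natCast_memLocalIdeal_iff hM _).mp h3
      rcases (Nat.Prime.dvd_mul hp).mp h5 with h6 | h6
      · exact hdp h6
      · exact hK'p h6
  have hint : ∀ n : ℤ, (p : ℤ) ∣ n → MemLocalIdeal M (n : ℂ) := by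
    rintro n ⟨m, rfl⟩
    push_cast
    exact memLocalIdeal_mul_right ((natCast_memLocalIdeal_iff hM _).mpr dvd_rfl)
      (memLocalRing_intCast m)
  have hF4 : ∀ (ξ : IrrCharacter C), ξ ∉ B' → MemLocalIdeal M (indHom C ξ z) := by
    intro ξ hξ
    have hξ0 : (fun n : K' => (ξ : C → ℂ) n) ≠ 0 := by
      intro h0
      have := congrFun h0 1
      exact irr_one_ne_zero ξ.2 this
    have hcf : IsClassFunction K' (fun n : K' => (ξ : C → ℂ) n) := by
      intro a b
      exact isClassFunction_of_isIrrCharacter ξ.2 _ _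
    obtain ⟨β, hβ, hcon⟩ := Cfsg.Agent.Lib.Char.Clifford.exists_irr_constituent hcf hξ0
    have hβne : (⟨β, hβ⟩ : IrrCharacter K') ≠ θs := by
      intro h
      apply hξ
      show classInner _ _ ≠ 0
      rw [← h]
      exact hcon
    obtain ⟨a, ha, -, h1⟩ := hF3 ξ ⟨β, hβ⟩ hcon
    rw [h1, if_neg hβne, add_zero]
    exact memLocalIdeal_mul_left ha (hint _ (dvd_mul_right _ _))
  have hF5 : ∀ (ξ : IrrCharacter C), ξ ∈ B' → ¬ MemLocalIdeal M (indHom C ξ z) := by
    intro ξ hξ hmem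
    obtain ⟨a, ha, ha', h1⟩ := hF3 ξ θs hξ
    rw [h1, if_pos rfl] at hmem
    have h2 := memLocalIdeal_of_mul ha ha' (memLocalRing_intCast _) hmem
    have h3 := memLocalIdeal_sub h2 (hint (p * kk θs) (dvd_mul_right _ _))
    have h4 : (((p * kk θs + ε : ℤ)) : ℂ) - ((p * kk θs : ℤ) : ℂ) = ((ε : ℤ) : ℂ) := by
      push_cast
      ring
    rw [h4] at h3
    rcases hε with h | h
    · rw [h] at h3
      exact one_notMemLocalIdeal (by simpa using h3)
    · rw [h] at h3
      exact one_notMemLocalIdeal (by simpa using memLocalIdeal_neg h3)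
  -- uniqueness
  have huniq : ∀ f : Set (IrrCharacter C), IsInducedBlock M C f B → f = B' := by
    intro f hf
    obtain ⟨ξ, hξ⟩ := isPBlock_nonempty hf.1
    obtain ⟨χ, hχ⟩ := isPBlock_nonempty hf.2.1
    have h1 := IsInducedBlock.sub_mem C hf hξ hχ hzl
    rw [hF1 χ hχ] at h1
    have hξB' : ξ ∈ B' := by
      by_contra hne
      have h2 := memLocalIdeal_sub (hF4 ξ hne) h1
      rw [sub_sub_cancel] at h2
      exact one_notMemLocalIdeal h2
    rw [isPBlock_eq_blockOf hf.1 hξ, isPBlock_eq_blockOf hB'block hξB']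
  refine ⟨B', ?_, huniq⟩
  -- existence
  obtain ⟨ξ₀, hξ₀⟩ := isPBlock_nonempty hB'block
  obtain ⟨χ₀, hχ₀⟩ := exists_irr_indHom hM hR ξ₀
  have h1 := hχ₀ z hzl
  have hχ₀B : χ₀ ∈ B := by
    by_contra hne
    rw [hF2 χ₀ hne, sub_zero] at h1
    exact hF5 ξ₀ hξ₀ h1
  have h2 := isInducedBlock_blockOf C hχ₀
  rw [← isPBlock_eq_blockOf hB'block hξ₀, ← isPBlock_eq_blockOf hBlock hχ₀B] at h2
  exact h2

end Main

end Cfsg.Agent.Lib.CharTriple.PrincipalType
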